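import Mathlib
import Cfsg.Agent.Lib.Helper44.Frob3.Defs
import Cfsg.Agent.Lib.Helper81.CharCore

/-!
# S4427 package [O] (helper25): orthogonality for two subgroups of coprime orders
-/

set_option autoImplicit false

universe u

namespace Cfsg.Agent.Lib.Helper25.Frob3

open Cfsg.Agent.Lib.Helper44.Frob3

theorem ev_subgroupSum {G : Type u} [Group G] [Finite G] (φ : G → ℂ) (H : Subgroup G) :
    ev φ (subgroupSum H) = ∑ᶠ h : H, φ (h : G) := by
  classical
  haveI : Fintype H := Fintype.ofFinite H
  unfold ev subgroupSum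
  rw [finsum_eq_sum_of_fintype, finsum_eq_sum_of_fintype, MonoidAlgebra.coeff_sum, map_sum]
  refine Finset.sum_congr rfl (fun h _ => ?_)
  rw [MonoidAlgebra.of_apply, MonoidAlgebra.coeff_single, Finsupp.linearCombination_single,
    one_smul]

/-- package [O] -/
theorem pkgOrth : PkgOrth.{u} := by
  intro G _ _ Q R hcop
  classical
  haveI : Fintype G := Fintype.ofFinite G
  haveI : Finite (Cfsg.IrrCharacter G) := Cfsg.Agent.Lib.Helper81.irr_finite G
  haveI : Fintype (Cfsg.IrrCharacter G) := Fintype.ofFinite _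
  haveI : Fintype Q := Fintype.ofFinite Q
  haveI : Fintype R := Fintype.ofFinite R
  have hkey : ∀ (y : Q) (z : R) (g : G), g * ((z : G)⁻¹) * g⁻¹ = (y : G) → y = 1 ∧ z = 1 := by
    intro y z g hg
    have ho : orderOf (y : G) = orderOf (z : G) := by
      rw [← hg]
      have h1 := (MulAut.conj g).orderOf_eq ((z : G)⁻¹)
      simp only [MulAut.conj_apply] at h1
      rw [h1, orderOf_inv]
    have hy : orderOf (y : G) ∣ Nat.card Q := by
      rw [Subgroup.orderOf_coe]
      exact orderOf_dvd_natCard y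
    have hz : orderOf (y : G) ∣ Nat.card R := by
      rw [ho, Subgroup.orderOf_coe]
      exact orderOf_dvd_natCard z
    have h1 : orderOf (y : G) ∣ Nat.gcd (Nat.card Q) (Nat.card R) := Nat.dvd_gcd hy hz
    rw [Nat.Coprime.gcd_eq_one hcop] at h1
    have h2 : orderOf (y : G) = 1 := Nat.eq_one_of_dvd_one h1
    have hy1 : (y : G) = 1 := orderOf_eq_one_iff.mp h2
    have hz1 : (z : G) = 1 := orderOf_eq_one_iff.mp (ho ▸ h2)
    exact ⟨Subtype.ext hy1, Subtype.ext hz1⟩
  have hterm : ∀ (y : Q) (z : R),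
      ∑ χ : Cfsg.IrrCharacter G, (χ : G → ℂ) (y : G) * (χ : G → ℂ) (z : G) =
        if (y = 1 ∧ z = 1) then (Nat.card G : ℂ) else 0 := by
    intro y z
    have h := Cfsg.Agent.Lib.Helper81.irr_col_orth_inv (y : G) ((z : G)⁻¹)
    rw [inv_inv] at h
    rw [h]
    split_ifs with hyz
    · obtain ⟨rfl, rfl⟩ := hyz
      congr 1
      exact Nat.card_congr (Equiv.subtypeUnivEquiv (fun g => by simp))
    · have hemp : IsEmpty {g : G // g * ((z : G)⁻¹) * g⁻¹ = (y : G)} := by
        constructor
        rintro ⟨g, hg⟩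
        exact hyz (hkey y z g hg)
      rw [Nat.card_of_isEmpty]
      simp
  rw [finsum_eq_sum_of_fintype]
  simp only [ev_subgroupSum, finsum_eq_sum_of_fintype]
  calc ∑ χ : Cfsg.IrrCharacter G,
        (∑ y : Q, (χ : G → ℂ) (y : G)) * (∑ z : R, (χ : G → ℂ) (z : G))
      = ∑ y : Q, ∑ z : R, ∑ χ : Cfsg.IrrCharacter G,
          (χ : G → ℂ) (y : G) * (χ : G → ℂ) (z : G) := by
        simp only [Finset.sum_mul_sum]
        rw [Finset.sum_comm]
        exact Finset.sum_congr rfl (fun y _ => Finset.sum_comm)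
    _ = ∑ y : Q, ∑ z : R, if (y = 1 ∧ z = 1) then (Nat.card G : ℂ) else 0 := by
        simp only [hterm]
    _ = (Nat.card G : ℂ) := by
        rw [Finset.sum_eq_single (1 : Q), Finset.sum_eq_single (1 : R)]
        · simp
        · intro z _ hz
          simp [hz]
        · intro h
          exact absurd (Finset.mem_univ _) h
        · intro y _ hy
          apply Finset.sum_eq_zero
          intro z _
          simp [hy]
        · intro h
          exact absurd (Finset.mem_univ _) h

end Cfsg.Agent.Lib.Helper25.Frob3
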